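import Cfsg.Agent.H167.KKL.E8
import Cfsg.Agent.H613.KS.Defs
import Cfsg.Agent.H749.KS.P3c

/-!
# S4577, row `E₈(q)`, `q` odd: an elementary abelian group of order 16 all of whose involutions have trace `-8` is toral
-/

set_option autoImplicit false
set_option linter.unusedSectionVars false

namespace Cfsg.Agent.H167.KS

open CoxeterSystem Cfsg Cfsg.Lie Cfsg.Lie.ChevalleyDatum
open Cfsg.Agent.ChevalleyStructure Cfsg.Agent.ChevalleyStructure.Elts Cfsg.Agent.ChevalleyStructure.CoxeterGeom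
  Cfsg.Agent.ChevalleyStructure.CoxeterGeomTypes Cfsg.Agent.ChevalleyStructure.NPerm
open Cfsg.Agent.Tits.Roots Cfsg.Agent.Tits.Core Cfsg.Agent.Nodes Cfsg.Agent.Nodes.Reps Cfsg.Agent.Nodes.BNOf
  Cfsg.Agent.Nodes.RGDChev Cfsg.Agent.Nodes.Bruhat Cfsg.Agent.Nodes.NormalForm
open Cfsg.Agent.KFacts.RgdField Cfsg.Agent.KFacts.RgdChevCoord Cfsg.Agent.GpExc.Field
open Cfsg.Agent.BpExc Cfsg.Agent.BpExc.TorCent Cfsg.Agent.BpExc.TorChev Cfsg.Agent.BpExc.Tow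
  Cfsg.Agent.BpExc.TowChev
open Cfsg.Agent.H613.KKL Cfsg.Agent.H167.KKL

/-! ### the boxes -/

/-- the boxes of the row `E₈(q)` of S4546 hold -/
theorem boxE8 {F : Type} [Field F] [Fintype F] (p : ℕ) [Fact p.Prime] [CharP F p] (hp2 : p ≠ 2)
    {k : Type} [Field k] [IsAlgClosed k] [Algebra F k] [CharP k p] (hk : LocFin k) :
    BoxE8 Nodes.KindE.isType8 p F k hk := by
  have hodd : Odd (Fintype.card F) := by
    obtain ⟨n', -, hn'⟩ := FiniteField.card F p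
    rw [hn']
    exact ((Fact.out : p.Prime).odd_of_ne_two hp2).pow
  have h2F : (2 : F) ≠ 0 := by
    intro h
    have h1 : ((2 : ℕ) : F) = 0 := by exact_mod_cast h
    rw [CharP.cast_eq_zero_iff F p] at h1
    exact hp2 ((Nat.prime_dvd_prime_iff_eq (Fact.out : p.Prime) Nat.prime_two).1 h1)
  obtain ⟨J, -, hJ1, hJ2⟩ := Cfsg.Agent.H392.KKL.x2a_E8 (F := F) h2F
  exact {
    p3 := fun hw f g hf hg hb => Cfsg.Agent.H387.KKL.P3 Nodes.KindE.isType8 hw f g hf hg hb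
    p4 := fun {_ _} hn hw {_ _} hz hz' h1 h2 hno =>
      Cfsg.Agent.H582.KKL.P4 Nodes.KindE.isType8 p hk hp2 hn hw hz hz' h1 h2 hno
    p4b := fun hw => Cfsg.Agent.H387.KKL.P4b Nodes.KindE.isType8 p hp2 hw
    p5 := fun hD htr g hg => Cfsg.Agent.H749.KKL.P5 Nodes.KindE.isType8 p hk hp2 hD htr g hg
    p6a := fun hz h1 hz1 => Cfsg.Agent.H348.KKL.E8R.P6a Nodes.KindE.isType8 hz h1 hz1
    p6 := fun {_ _} hD {_} hd hd1 h => Cfsg.Agent.H348.KKL.E8R.P6 Nodes.KindE.isType8 hodd _ hD ⟨J, hJ1, hJ2⟩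
      (Cfsg.Agent.H392.KKL.rho chevE8 F) (fun _ ht => Cfsg.Agent.H392.KKL.dim_E8 h2F ht) hd hd1 h }

/-! ### two of three functionals -/

/-- the `w` of the `D₄` -/
def WD4 (hp : IsType chevE8 8 CoxeterMatrix.E₈) (w : CoxeterMatrix.E₈.Group) : Prop :=
  ∀ j, wv hp.isCartan w (sr j) = sr j + d4 j

/-- the values of an invariant functional on the `D₄` -/
theorem inv_d4 {hp : IsType chevE8 8 CoxeterMatrix.E₈} {w : CoxeterMatrix.E₈.Group} (hw : WD4 hp w)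
    (f : (Fin 8 → ℤ) →+ ZMod 2) (hf : ∀ x, f (wv hp.isCartan w x) = f x) :
    f (sr 2) = f (sr 1) ∧ f (sr 4) = f (sr 1) := by
  have h1 : ∀ j, f (d4 j) = 0 := by
    intro j
    have h2 := hf (sr j)
    rw [hw j, map_add] at h2
    exact left_eq_add.1 h2.symm
  have e0 : (d4 0 : Fin 8 → ℤ) = sr 1 + (2 : ℕ) • sr 2 + (2 : ℕ) • sr 3 + sr 4 := by decide
  have e5 : (d4 5 : Fin 8 → ℤ) = sr 1 + sr 2 + (2 : ℕ) • sr 3 + (2 : ℕ) • sr 4 := by decide
  have h0 := h1 0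
  have h5 := h1 5
  rw [e0] at h0
  rw [e5] at h5
  simp only [map_add, map_nsmul] at h0 h5
  generalize f (sr 1) = a at *
  generalize f (sr 2) = b at *
  generalize f (sr 3) = c at *
  generalize f (sr 4) = d at *
  revert a b c d
  decide

/-- a functional on the roots negated by `w` -/
theorem eval_d4 {hp : IsType chevE8 8 CoxeterMatrix.E₈} {w : CoxeterMatrix.E₈.Group} (hw : WD4 hp w)
    (f : (Fin 8 → ℤ) →+ ZMod 2) (hf : ∀ x, f (wv hp.isCartan w x) = f x) {b : Fin 8 → ℤ}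
    (hb : wv hp.isCartan w b = -b) :
    f b = ((b 1 + b 2 + b 4 : ℤ) : ZMod 2) * f (sr 1) + ((b 3 : ℤ) : ZMod 2) * f (sr 3) := by
  obtain ⟨h2, h4⟩ := inv_d4 hw f hf
  have h1 : ∀ i, b i + b i + ∑ j, b j * d4 j i = 0 := by
    intro i
    have h3 := Cfsg.Agent.H387.KKL.wv_eq hp hw b i
    rw [hb, Pi.neg_apply] at h3
    linarith
  have k0 : b 0 = 0 := by
    have := h1 0
    rw [Fin.sum_univ_eight] at this
    simp [d4] at this
    linarith
  have k5 : b 5 = 0 := by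
    have := h1 5
    rw [Fin.sum_univ_eight] at this
    simp [d4] at this
    linarith
  have k6 : b 6 = 0 := by
    have := h1 6
    rw [Fin.sum_univ_eight] at this
    simp [d4] at this
    linarith
  have k7 : b 7 = 0 := by
    have := h1 7
    rw [Fin.sum_univ_eight] at this
    simp [d4] at this
    linarith
  have hz : ∀ (n : ℤ) (x : Fin 8 → ℤ), f (n • x) = (n : ZMod 2) * f x := fun n x => by
    rw [map_zsmul, zsmul_eq_mul]
  conv_lhs => rw [Cfsg.Agent.H798.KKL.eq_sum_sr b]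
  rw [map_sum, Fin.sum_univ_eight, hz, hz, hz, hz, hz, hz, hz, hz, k0, k5, k6, k7, h2, h4]
  push_cast
  ring

/-- **two of the three functionals suffice on the `D₄`** -/
theorem exists_pair {hp : IsType chevE8 8 CoxeterMatrix.E₈} {w : CoxeterMatrix.E₈.Group} (hw : WD4 hp w)
    (f g h : (Fin 8 → ℤ) →+ ZMod 2) (hf : ∀ x, f (wv hp.isCartan w x) = f x)
    (hg : ∀ x, g (wv hp.isCartan w x) = g x) (hh : ∀ x, h (wv hp.isCartan w x) = h x)
    (hb : ∀ b, rt' hp.isCartan b → wv hp.isCartan w b = -b → f b ≠ 0 ∨ g b ≠ 0 ∨ h b ≠ 0) :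
    (∀ b, rt' hp.isCartan b → wv hp.isCartan w b = -b → f b ≠ 0 ∨ g b ≠ 0) ∨
    (∀ b, rt' hp.isCartan b → wv hp.isCartan w b = -b → f b ≠ 0 ∨ h b ≠ 0) ∨
    (∀ b, rt' hp.isCartan b → wv hp.isCartan w b = -b → g b ≠ 0 ∨ h b ≠ 0) := by
  have h1 : wv hp.isCartan w (sr 1) = -sr 1 := by rw [hw]; decide
  have h3 : wv hp.isCartan w (sr 3) = -sr 3 := by rw [hw]; decide
  have hA : cartanOf chevE8 8 1 3 = -1 := by decide +kernel
  have h13 : rt' hp.isCartan (sr 3 + sr 1) := by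
    refine Cfsg.Agent.H387.KKL.root_add _ (isRoot_sr _ _ 3) ?_
    rw [Cfsg.Agent.H387.KKL.pairing_sr, hA]
  have h4 : wv hp.isCartan w (sr 3 + sr 1) = -(sr 3 + sr 1) := by
    have : wv hp.isCartan w (sr 3 + sr 1) = wv hp.isCartan w (sr 3) + wv hp.isCartan w (sr 1) :=
      map_add (rep CoxeterMatrix.E₈.toCoxeterSystem hp.isCartan w) _ _
    rw [this, h1, h3, neg_add]
  have e1 := hb _ (isRoot_sr _ _ 1) h1
  have e3 := hb _ (isRoot_sr _ _ 3) h3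
  have e4 := hb _ h13 h4
  simp only [map_add] at e4
  have key1 : ∀ x y z x' y' z' : ZMod 2, (x ≠ 0 ∨ y ≠ 0 ∨ z ≠ 0) → (x' ≠ 0 ∨ y' ≠ 0 ∨ z' ≠ 0) →
      (x' + x ≠ 0 ∨ y' + y ≠ 0 ∨ z' + z ≠ 0) →
      x * y' + y * x' ≠ 0 ∨ x * z' + z * x' ≠ 0 ∨ y * z' + z * y' ≠ 0 := by decide +kernel
  have key2 : ∀ x y x' y' : ZMod 2, x * y' + y * x' ≠ 0 → ∀ s t, s * x + t * x' = 0 → s * y + t * y' = 0 →
      s = 0 ∧ t = 0 := by decide +kernel
  rcases key1 _ _ _ _ _ _ e1 e3 e4 with k | k | k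
  · refine Or.inl fun b hr hw' => ?_
    by_contra hc
    push Not at hc
    have h5 := hb b hr hw'
    rw [eval_d4 hw f hf hw', eval_d4 hw g hg hw'] at hc
    rw [eval_d4 hw f hf hw', eval_d4 hw g hg hw', eval_d4 hw h hh hw'] at h5
    obtain ⟨k1, k2⟩ := key2 _ _ _ _ k _ _ hc.1 hc.2
    simp [k1, k2] at h5
  · refine Or.inr (Or.inl fun b hr hw' => ?_)
    by_contra hc
    push Not at hc
    have h5 := hb b hr hw'
    rw [eval_d4 hw f hf hw', eval_d4 hw h hh hw'] at hc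
    rw [eval_d4 hw f hf hw', eval_d4 hw g hg hw', eval_d4 hw h hh hw'] at h5
    obtain ⟨k1, k2⟩ := key2 _ _ _ _ k _ _ hc.1 hc.2
    simp [k1, k2] at h5
  · refine Or.inr (Or.inr fun b hr hw' => ?_)
    by_contra hc
    push Not at hc
    have h5 := hb b hr hw'
    rw [eval_d4 hw g hg hw', eval_d4 hw h hh hw'] at hc
    rw [eval_d4 hw f hf hw', eval_d4 hw g hg hw', eval_d4 hw h hh hw'] at h5
    obtain ⟨k1, k2⟩ := key2 _ _ _ _ k _ _ hc.1 hc.2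
    simp [k1, k2] at h5

/-! ### generators -/

open Cfsg.Agent.H613.KS

/-- a group of order 16 and exponent 2 is generated by four elements -/
theorem exists_gen4 {G : Type*} [Group G] {D : Subgroup G} (h16 : E16 D) :
    ∃ a ∈ D, ∃ b ∈ D, ∃ c ∈ D, ∃ d ∈ D, a ≠ 1 ∧ b ≠ 1 ∧ a * b ≠ 1 ∧ c ≠ 1 ∧ c * a ≠ 1 ∧ c * b ≠ 1 ∧
      c * (a * b) ≠ 1 ∧ d ≠ 1 ∧ d * a ≠ 1 ∧ d * b ≠ 1 ∧ d * c ≠ 1 ∧ d * (a * b) ≠ 1 ∧ d * (c * a) ≠ 1 ∧
      d * (c * b) ≠ 1 ∧ d * (c * (a * b)) ≠ 1 ∧ ∀ x ∈ D, x ∈ Subgroup.closure {a, b, c, d} := by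
  classical
  have hfin : Finite D := Nat.finite_of_card_ne_zero (by rw [h16.card]; norm_num)
  obtain ⟨K', hK'⟩ := Sylow.exists_subgroup_card_pow_prime (G := D) 2 (n := 3) (by rw [h16.card]; norm_num)
  obtain ⟨K, hK⟩ : ∃ K : Subgroup G, K = K'.map D.subtype := ⟨_, rfl⟩
  have hKD : K ≤ D := by
    rw [hK]; rintro _ ⟨y, -, rfl⟩; exact y.2
  have hKc : Nat.card K = 8 := by
    rw [hK, Subgroup.card_map_of_injective D.subtype_injective, hK']; norm_num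
  obtain ⟨a, ha, b, hb, c, hc, ha1, hb1, hab1, hc1, hca1, hcb1, hcab1, hcl⟩ :=
    exists_gen (D := K) ⟨hKc, fun d hd => h16.inv d (hKD hd)⟩
  obtain ⟨d, hd, hdK⟩ : ∃ d ∈ D, d ∉ K := by
    by_contra hcon
    push Not at hcon
    have h1 : Nat.card D ≤ Nat.card K :=
      have : Finite K := Nat.finite_of_card_ne_zero (by rw [hKc]; norm_num)
      Nat.card_le_card_of_injective (Subgroup.inclusion (show D ≤ K from hcon)) (Subgroup.inclusion_injective _)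
    rw [h16.card, hKc] at h1
    omega
  have hn : ∀ y ∈ K, d * y ≠ 1 := fun y hy h => hdK (by
    rw [eq_inv_of_mul_eq_one_left h]; exact inv_mem hy)
  have hd1 : d ≠ 1 := fun h => hdK (h ▸ one_mem K)
  refine ⟨a, hKD ha, b, hKD hb, c, hKD hc, d, hd, ha1, hb1, hab1, hc1, hca1, hcb1, hcab1, hd1, hn a ha, hn b hb, hn c hc,
    hn _ (mul_mem ha hb), hn _ (mul_mem hc ha), hn _ (mul_mem hc hb), hn _ (mul_mem hc (mul_mem ha hb)), ?_⟩
  obtain ⟨L, hL⟩ : ∃ L : Subgroup G, L = Subgroup.closure ({a, b, c, d} : Set G) := ⟨_, rfl⟩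
  rw [← hL]
  have hdL : d ∈ L := by rw [hL]; exact Subgroup.subset_closure (by simp)
  have hKL : K ≤ L := fun x hx => by
    rw [hL]
    refine Subgroup.closure_mono ?_ (hcl x hx)
    rintro y (rfl | rfl | rfl) <;> simp
  have hLD : L ≤ D := by
    rw [hL]
    refine (Subgroup.closure_le _).2 ?_
    rintro x (rfl | rfl | rfl | rfl)
    exacts [hKD ha, hKD hb, hKD hc, hd]
  have hfL : Finite L := Finite.of_injective (Subgroup.inclusion hLD) (Subgroup.inclusion_injective hLD)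
  have h9 : Nat.card L ∣ 16 := by
    rw [← h16.card]
    exact Subgroup.card_dvd_of_le hLD
  have h8 : Nat.card K ≤ Nat.card L :=
    Nat.card_le_card_of_injective (Subgroup.inclusion hKL) (Subgroup.inclusion_injective hKL)
  have h8' : Nat.card L ≠ 8 := by
    intro h
    have : K = L := Subgroup.eq_of_le_of_card_ge hKL (by rw [h, hKc])
    exact hdK (this ▸ hdL)
  rw [hKc] at h8
  have h10 : Nat.card L = 16 := by
    have := Nat.le_of_dvd (by norm_num) h9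
    interval_cases h : Nat.card L <;> omega
  have h11 : L = D := Subgroup.eq_of_le_of_card_ge hLD (by rw [h10, h16.card])
  intro x hx
  rw [h11]; exact hx

section Main

variable (hp : IsType chevE8 8 CoxeterMatrix.E₈) (p : ℕ) [Fact p.Prime] {F : Type} [Field F] [Fintype F] [CharP F p]
  {k : Type} [Field k] [IsAlgClosed k] [Algebra F k] [CharP k p] (hk : LocFin k)

/-- the `D₄` case is impossible over a pure pair -/
theorem d4_false (B : BoxE8 hp p F k hk) (hp2 : p ≠ 2) {E : Subgroup ↥(chevE8.group k)} (hinv : ∀ d ∈ E, d * d = 1)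
    (htr : ∀ d ∈ E, d ≠ 1 → trL chevE8 d = -8) {w : CoxeterMatrix.E₈.Group} (hw : WD4 hp w) {n : ↥(chevE8.group k)}
    (hn : Rp CoxeterMatrix.E₈.toCoxeterSystem (tow hp CoxeterMatrix.E₈.toCoxeterSystem hk p).nsys w n) (hnE : n ∈ E)
    {z z' : ↥(chevE8.group k)} (hz : z ∈ TT chevE8 k) (hz' : z' ∈ TT chevE8 k) (hzE : z ∈ E) (hzE' : z' ∈ E)
    (h1 : z ≠ 1) (h2 : z' ≠ 1) (h3 : z * z' ≠ 1) (h4 : n ≠ 1) (h5 : n * z ≠ 1) (h6 : n * z' ≠ 1)
    (h7 : n * (z * z') ≠ 1)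
    (hneg : ∀ b, rt' hp.isCartan b → wv hp.isCartan w b = -b → ch hp b z ≠ 1 ∨ ch hp b z' ≠ 1) : False := by
  have h20 := two_ne (k := k) p hp2
  have h8 := B.p4b hw hz hz' (hinv z hzE) (hinv z' hzE') hneg (htr z hzE h1) (htr z' hzE' h2)
    (htr _ (mul_mem hzE hzE') h3)
  have h9 := B.p4 hn hw hz hz' (hinv z hzE) (hinv z' hzE') h8
  rw [htr n hnE h4, htr _ (mul_mem hnE hzE) h5, htr _ (mul_mem hnE hzE') h6,
    htr _ (mul_mem hnE (mul_mem hzE hzE')) h7] at h9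
  have h10 : (2 : k) ^ 5 = 0 := by linear_combination -h9
  exact h20 (pow_eq_zero_iff (by norm_num) |>.1 h10)

/-- P3 for three functionals -/
def P3c (hp : IsType chevE8 8 CoxeterMatrix.E₈) : Prop :=
  ∀ {w : CoxeterMatrix.E₈.Group}, Res hp.isCartan w → ∀ (f g h : (Fin 8 → ℤ) →+ ZMod 2),
    (∀ x, f (wv hp.isCartan w x) = f x) → (∀ x, g (wv hp.isCartan w x) = g x) →
    (∀ x, h (wv hp.isCartan w x) = h x) →
    (∀ b, rt' hp.isCartan b → wv hp.isCartan w b = -b → f b ≠ 0 ∨ g b ≠ 0 ∨ h b ≠ 0) →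
    w = 1 ∨ ∀ j, wv hp.isCartan w (sr j) = sr j + d4 j

/-- four commuting involutions generating a group all of whose involutions have trace `-8` are toral over `k` -/
theorem quad_toral (B : BoxE8 hp p F k hk) (B3 : P3c hp) (hp2 : p ≠ 2) {E : Subgroup ↥(chevE8.group k)}
    (hinv : ∀ d ∈ E, d * d = 1) (htr : ∀ d ∈ E, d ≠ 1 → trL chevE8 d = -8) {a b c d : ↥(chevE8.group k)}
    (ha : a ∈ E) (hb : b ∈ E) (hc : c ∈ E) (hd : d ∈ E) (ha1 : a ≠ 1) (hb1 : b ≠ 1) (hab1 : a * b ≠ 1) (hc1 : c ≠ 1)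
    (hca1 : c * a ≠ 1) (hcb1 : c * b ≠ 1) (hcab1 : c * (a * b) ≠ 1) (hd1 : d ≠ 1) (hda1 : d * a ≠ 1)
    (hdb1 : d * b ≠ 1) (hdc1 : d * c ≠ 1) (hdab1 : d * (a * b) ≠ 1) (hdca1 : d * (c * a) ≠ 1)
    (hdcb1 : d * (c * b) ≠ 1) :
    ∃ g, g * a * g⁻¹ ∈ TT chevE8 k ∧ g * b * g⁻¹ ∈ TT chevE8 k ∧ g * c * g⁻¹ ∈ TT chevE8 k ∧
      g * d * g⁻¹ ∈ TT chevE8 k := by
  have h20 := two_ne (k := k) p hp2
  have hcm : ∀ a ∈ E, ∀ b ∈ E, a * b = b * a := by
    intro a ha b hb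
    have h2 : a⁻¹ = a := by rw [inv_eq_iff_mul_eq_one]; exact hinv a ha
    have h3 : b⁻¹ = b := by rw [inv_eq_iff_mul_eq_one]; exact hinv b hb
    calc a * b = (a * b)⁻¹ := by rw [eq_inv_iff_mul_eq_one]; exact hinv _ (mul_mem ha hb)
      _ = b * a := by rw [mul_inv_rev, h2, h3]
  obtain ⟨g1, ga1, gb1, gc1⟩ := triple_toral hp p hk B hp2 (hinv a ha) (hinv b hb) (hinv c hc) (hcm a ha b hb)
    (hcm c hc a ha) (hcm c hc b hb) (htr a ha ha1) (htr b hb hb1) (htr _ (mul_mem ha hb) hab1) (htr c hc hc1)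
    (htr _ (mul_mem hc ha) hca1) (htr _ (mul_mem hc hb) hcb1) (htr _ (mul_mem hc (mul_mem ha hb)) hcab1)
  -- the conjugate group
  have step : ∀ (g : ↥(chevE8.group k)) (x y : ↥(chevE8.group k)), g * x * g⁻¹ * (g * y * g⁻¹) = g * (x * y) * g⁻¹ :=
    fun g x y => by group
  obtain ⟨g2, w, n, h2, hn, hnn, e, hres, hb2⟩ := red hp p hk hp2
    (Z := {g1 * a * g1⁻¹, g1 * b * g1⁻¹, g1 * c * g1⁻¹})
    (Set.toFinite _) (by rintro _ (rfl | rfl | rfl); exacts [ga1, gb1, gc1]) (x := g1 * d * g1⁻¹)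
    (by rw [step, hinv d hd]; group) (by
      rintro _ (rfl | rfl | rfl)
      · rw [step, step, hcm d hd a ha]
      · rw [step, step, hcm d hd b hb]
      · rw [step, step, hcm d hd c hc])
  obtain ⟨g, hg⟩ : ∃ g, g = g2 * g1 := ⟨_, rfl⟩
  have hcj : ∀ y, g2 * (g1 * y * g1⁻¹) * g2⁻¹ = g * y * g⁻¹ := fun y => by rw [hg]; group
  rw [hcj] at e
  have Ta : g * a * g⁻¹ ∈ TT chevE8 k := by rw [← hcj]; exact h2 _ (Or.inl rfl)
  have Tb : g * b * g⁻¹ ∈ TT chevE8 k := by rw [← hcj]; exact h2 _ (Or.inr (Or.inl rfl))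
  have Tc : g * c * g⁻¹ ∈ TT chevE8 k := by rw [← hcj]; exact h2 _ (Or.inr (Or.inr rfl))
  obtain ⟨E', hE'⟩ : ∃ E' : Subgroup ↥(chevE8.group k), ∀ x, x ∈ E → g * x * g⁻¹ ∈ E' ∧
      (∀ d ∈ E', d * d = 1) ∧ (∀ d ∈ E', d ≠ 1 → trL chevE8 d = -8) := by
    refine ⟨E.map (MulAut.conj g).toMonoidHom, fun x hx => ⟨⟨x, hx, rfl⟩, ?_, ?_⟩⟩
    · rintro _ ⟨y, hy, rfl⟩
      show g * y * g⁻¹ * (g * y * g⁻¹) = 1
      rw [step, hinv y hy]; group
    · rintro _ ⟨y, hy, rfl⟩ h1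
      show trL chevE8 (g * y * g⁻¹) = -8
      rw [trL_conj]
      refine htr y hy fun h => h1 ?_
      rw [h, map_one]
  obtain ⟨Ea, inv', tr'⟩ := hE' a ha
  have Eb := (hE' b hb).1
  have Ec := (hE' c hc).1
  have En : n ∈ E' := by rw [← e]; exact (hE' d hd).1
  have hne : ∀ x, x ≠ 1 → g * x * g⁻¹ ≠ 1 := by
    intro x hx h
    apply hx
    have : x = g⁻¹ * (g * x * g⁻¹) * g := by group
    rw [this, h]; group
  have hinvT : ∀ x ∈ E', x * x = 1 := inv'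
  have hnz : ∀ x ∈ E, n * (g * x * g⁻¹) = g * x * g⁻¹ * n := by
    intro x hx
    rw [← e, step, step, hcm d hd x hx]
  obtain ⟨f1, hf1⟩ := exists_sgn hp p hk Ta (inv' _ Ea)
  obtain ⟨f2, hf2⟩ := exists_sgn hp p hk Tb (inv' _ Eb)
  obtain ⟨f3, hf3⟩ := exists_sgn hp p hk Tc (inv' _ Ec)
  have i1 := sgn_eq hp p hk hp2 hn Ta (hnz a ha) hf1
  have i2 := sgn_eq hp p hk hp2 hn Tb (hnz b hb) hf2
  have i3 := sgn_eq hp p hk hp2 hn Tc (hnz c hc) hf3
  have hback : ∀ {x : ↥(chevE8.group k)} {f : (Fin 8 → ℤ) →+ ZMod 2},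
      (∀ b, rt' hp.isCartan b → ch hp b x = sg (f b)) → ∀ b, rt' hp.isCartan b → (ch hp b x ≠ 1 ↔ f b ≠ 0) := by
    intro x f hf b hb
    rw [hf b hb, Ne, sg_eq_one h20]
  have hneg : ∀ b', rt' hp.isCartan b' → wv hp.isCartan w b' = -b' → f1 b' ≠ 0 ∨ f2 b' ≠ 0 ∨ f3 b' ≠ 0 := by
    intro b' hb' hwb
    obtain ⟨y, hy, h5⟩ := hb2 b' hb' hwb
    rcases hy with rfl | rfl | rfl
    · rw [hcj] at h5; exact Or.inl ((hback hf1 b' hb').1 h5)
    · rw [hcj] at h5; exact Or.inr (Or.inl ((hback hf2 b' hb').1 h5))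
    · rw [hcj] at h5; exact Or.inr (Or.inr ((hback hf3 b' hb').1 h5))
  have n1 : n ≠ 1 := by rw [← e]; exact hne d hd1
  have nx : ∀ x, d * x ≠ 1 → n * (g * x * g⁻¹) ≠ 1 := by
    intro x hx
    rw [← e, step]
    exact hne _ hx
  rcases B3 hres f1 f2 f3 i1 i2 i3 hneg with h6 | h6
  · subst h6
    refine ⟨g, Ta, Tb, Tc, ?_⟩
    rw [e]
    have := hn.mem_of_one
    rwa [TL_eq hp hk] at this
  · exfalso
    rcases exists_pair (hp := hp) h6 f1 f2 f3 i1 i2 i3 hneg with h7 | h7 | h7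
    · exact d4_false hp p hk B hp2 inv' tr' h6 hn En Ta Tb Ea Eb (hne a ha1) (hne b hb1)
        (by rw [step]; exact hne _ hab1) n1 (nx a hda1) (nx b hdb1) (by rw [step]; exact nx _ hdab1)
        fun b' h8 h9 => (h7 b' h8 h9).imp (hback hf1 b' h8).2 (hback hf2 b' h8).2
    · exact d4_false hp p hk B hp2 inv' tr' h6 hn En Tc Ta Ec Ea (hne c hc1) (hne a ha1)
        (by rw [step]; exact hne _ hca1) n1 (nx c hdc1) (nx a hda1) (by rw [step]; exact nx _ hdca1)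
        fun b' h8 h9 => ((h7 b' h8 h9).imp (hback hf1 b' h8).2 (hback hf3 b' h8).2).symm
    · exact d4_false hp p hk B hp2 inv' tr' h6 hn En Tc Tb Ec Eb (hne c hc1) (hne b hb1)
        (by rw [step]; exact hne _ hcb1) n1 (nx c hdc1) (nx b hdb1) (by rw [step]; exact nx _ hdcb1)
        fun b' h8 h9 => ((h7 b' h8 h9).imp (hback hf2 b' h8).2 (hback hf3 b' h8).2).symm

/-- **a group of order 16 and exponent 2 all of whose involutions have trace `-8` is toral over `k`** -/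
theorem toral_of_pure (B : BoxE8 hp p F k hk) (B3 : P3c hp) (hp2 : p ≠ 2) {E : Subgroup ↥(chevE8.group k)} (h16 : E16 E)
    (htr : ∀ d ∈ E, d ≠ 1 → trL chevE8 d = -8) : ∃ g : ↥(chevE8.group k), ∀ d ∈ E, g * d * g⁻¹ ∈ TT chevE8 k := by
  obtain ⟨a, ha, b, hb, c, hc, d, hd, ha1, hb1, hab1, hc1, hca1, hcb1, hcab1, hd1, hda1, hdb1, hdc1, hdab1, hdca1,
    hdcb1, -, hcl⟩ := exists_gen4 h16
  obtain ⟨g, ga, gb, gc, gd⟩ := quad_toral hp p hk B B3 hp2 h16.inv htr ha hb hc hd ha1 hb1 hab1 hc1 hca1 hcb1 hcab1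
    hd1 hda1 hdb1 hdc1 hdab1 hdca1 hdcb1
  refine ⟨g, fun y hy => ?_⟩
  refine (Subgroup.closure_le (K := (TT chevE8 k).comap (MulAut.conj g).toMonoidHom)).2 ?_ (hcl y hy)
  rintro x (rfl | rfl | rfl | rfl)
  exacts [ga, gb, gc, gd]

/-- the same in `E₈(q)` -/
theorem tor_pure_of (B : BoxE8 hp p F k hk) (B3 : P3c hp) (hp2 : p ≠ 2) {D : Subgroup ↥(chevE8.group F)} (h16 : E16 D)
    (htr : ∀ d ∈ D, d ≠ 1 → trL chevE8 (emb hp.inList (algebraMap F k) d) = -8) :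
    ∃ g : ↥(chevE8.group k), ∀ d ∈ D, g * emb hp.inList (algebraMap F k) d * g⁻¹ ∈ TT chevE8 k := by
  have hinj := emb_injective hp.inList (algebraMap F k)
  obtain ⟨g, hg⟩ := toral_of_pure hp p hk B B3 hp2 (E := D.map (emb hp.inList (algebraMap F k)))
    ⟨by rw [Subgroup.card_map_of_injective hinj, h16.card], by
      rintro _ ⟨y, hy, rfl⟩
      rw [← map_mul, h16.inv y hy, map_one]⟩ (by
      rintro _ ⟨y, hy, rfl⟩ h1
      exact htr y hy fun h => h1 (by rw [h, map_one]))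
  exact ⟨g, fun d hd => hg _ ⟨d, hd, rfl⟩⟩

theorem p3c (hp : IsType chevE8 8 CoxeterMatrix.E₈) : P3c hp := fun hw f g h hf hg hh hb =>
  Cfsg.Agent.H749.KS.P3c hp hw f g h hf hg hh hb

include hk in
/-- **torality of the pure groups of order 16 in `E₈(q)`** -/
theorem tor_pure (hp2 : p ≠ 2) {D : Subgroup ↥(chevE8.group F)} (h16 : E16 D)
    (htr : ∀ d ∈ D, d ≠ 1 → trL chevE8 (emb Nodes.KindE.isType8.inList (algebraMap F k) d) = -8) :
    ∃ g : ↥(chevE8.group k), ∀ d ∈ D, g * emb Nodes.KindE.isType8.inList (algebraMap F k) d * g⁻¹ ∈ TT chevE8 k :=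
  tor_pure_of Nodes.KindE.isType8 p hk (boxE8 p hp2 hk) (p3c Nodes.KindE.isType8) hp2 h16 htr

end Main

end Cfsg.Agent.H167.KS
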